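import Cfsg.Agent.H999.DS.Tools

/-!
# Kernel checks for the rows `He`, `HN`, Tits (helper64)

From the exact degrees `680`, `1275` of `He`, `8910`, `365750` of `HN`, `78`, `650` of the Tits group.
-/

set_option autoImplicit false
set_option maxRecDepth 100000

namespace Cfsg.Agent.H64.DS

open Cfsg Cfsg.Agent.H704 Cfsg.Agent.H999.DS

/-! ### the checks -/

/-- no degree is one of `L` -/
def noL (L : List ℕ) (d : ℕ) : Bool := !(L.contains d)

theorem not_of_full {n : ℕ} {L : List ℕ}
    (h : go (fun _ H => noL L (Nat.div n.factorial H)) (n + 1) n 1 [] 1 = true) {d : ℕ} (hd : IsDeg n d) (hL : d ∈ L) :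
    False := by
  have h1 := check_of_isDeg h hd
  unfold noL at h1
  rw [Bool.not_eq_true'] at h1
  rw [← List.contains_iff_mem, h1] at hL
  exact absurd hL (by decide)

theorem lb19 : LB 19 4 2550 := lb_base (by decide +kernel)

theorem lb21 : LB 21 5 17820 := lb_base (by decide +kernel)

theorem no_he {n : ℕ} (h1 : IsDeg n 680 ∨ IsDeg n (2 * 680)) (h2 : IsDeg n 1275 ∨ IsDeg n (2 * 1275)) : False := by
  have h17 : 17 ≤ n := by
    rcases h1 with h1 | h1 <;> exact le_of_prime h1 (by norm_num) (by norm_num)
  by_cases hn : n = 17 ∨ n = 18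
  · rcases hn with rfl | rfl
    · rcases h2 with h2 | h2
      · exact not_of_full (L := [1275, 2550]) (by decide +kernel) h2 (by decide)
      · exact not_of_full (L := [1275, 2550]) (by decide +kernel) h2 (by decide)
    · rcases h2 with h2 | h2
      · exact not_of_full (L := [1275, 2550]) (by decide +kernel) h2 (by decide)
      · exact not_of_full (L := [1275, 2550]) (by decide +kernel) h2 (by decide)
  rcases h1 with h1 | h1 <;> rcases h2 with h2 | h2
  · exact kill h1 h2 (a := 19) (s := 20) (b := 39) (by omega) (q0 := 19) (by norm_num) (by norm_num) lb19 (by norm_num)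
      (by norm_num) (fun h => h) (by decide +kernel) (by norm_num) (by norm_num) (by norm_num) (by norm_num)
      (by norm_num)
  · exact kill h1 h2 (a := 19) (s := 20) (b := 39) (by omega) (q0 := 19) (by norm_num) (by norm_num) lb19 (by norm_num)
      (by norm_num) (fun h => h) (by decide +kernel) (by norm_num) (by norm_num) (by norm_num) (by norm_num)
      (by norm_num)
  · exact kill h1 h2 (a := 19) (s := 35) (b := 54) (by omega) (q0 := 19) (by norm_num) (by norm_num) lb19 (by norm_num)
      (by norm_num) (fun h => h) (by decide +kernel) (by norm_num) (by norm_num) (by norm_num) (by norm_num)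
      (by norm_num)
  · exact kill h1 h2 (a := 19) (s := 35) (b := 54) (by omega) (q0 := 19) (by norm_num) (by norm_num) lb19 (by norm_num)
      (by norm_num) (fun h => h) (by decide +kernel) (by norm_num) (by norm_num) (by norm_num) (by norm_num)
      (by norm_num)

theorem chk_hn_a : ((List.range 114).all fun i => levChk 5 (21 + i) 8910) = true := by decide +kernel

theorem chk_hn_b : ((List.range 170).all fun i => levChk 5 (21 + i) (2 * 8910)) = true := by decide +kernel

theorem no_hn {n : ℕ} (h1 : IsDeg n 8910 ∨ IsDeg n (2 * 8910)) (h2 : IsDeg n 365750 ∨ IsDeg n (2 * 365750)) :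
    False := by
  have h19 : 19 ≤ n := by
    rcases h2 with h2 | h2 <;> exact le_of_prime h2 (by norm_num) (by norm_num)
  by_cases hn : n = 135
  · subst hn
    rcases h2 with h2 | h2
    · exact not_isDeg (lb_of_le (by norm_num) lb29 (by norm_num)) (by norm_num) (by norm_num) (by norm_num)
        (by decide +kernel) h2
    · exact not_isDeg (lb_of_le (by norm_num) lb29 (by norm_num)) (by norm_num) (by norm_num) (by norm_num)
        (by decide +kernel) h2
  by_cases hn2 : n = 19 ∨ n = 20
  · rcases hn2 with rfl | rfl
    · rcases h1 with h1 | h1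
      · exact not_of_full (L := [8910, 17820]) (by decide +kernel) h1 (by decide)
      · exact not_of_full (L := [8910, 17820]) (by decide +kernel) h1 (by decide)
    · rcases h1 with h1 | h1
      · exact not_of_full (L := [8910, 17820]) (by decide +kernel) h1 (by decide)
      · exact not_of_full (L := [8910, 17820]) (by decide +kernel) h1 (by decide)
  rcases h1 with h1 | h1 <;> rcases h2 with h2 | h2
  · exact kill h1 h2 (a := 21) (s := 114) (b := 136) (by omega) (q0 := 21) (by norm_num) (by norm_num) lb21 (by norm_num)
      (by norm_num) (by omega) chk_hn_a (by norm_num) (by norm_num) (by norm_num) (by norm_num)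
      (by norm_num)
  · exact kill h1 h2 (a := 21) (s := 114) (b := 136) (by omega) (q0 := 21) (by norm_num) (by norm_num) lb21 (by norm_num)
      (by norm_num) (by omega) chk_hn_a (by norm_num) (by norm_num) (by norm_num) (by norm_num)
      (by norm_num)
  · exact kill h1 h2 (a := 21) (s := 170) (b := 191) (by omega) (q0 := 21) (by norm_num) (by norm_num) lb21 (by norm_num)
      (by norm_num) (fun h => h) chk_hn_b (by norm_num) (by norm_num) (by norm_num) (by norm_num)
      (by norm_num)
  · exact kill h1 h2 (a := 21) (s := 170) (b := 191) (by omega) (q0 := 21) (by norm_num) (by norm_num) lb21 (by norm_num)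
      (by norm_num) (fun h => h) chk_hn_b (by norm_num) (by norm_num) (by norm_num) (by norm_num)
      (by norm_num)

theorem no_tits {n : ℕ} (h1 : IsDeg n 78 ∨ IsDeg n (2 * 78)) (h2 : IsDeg n 650 ∨ IsDeg n (2 * 650)) : False := by
  have h13 : 13 ≤ n := by
    rcases h1 with h1 | h1 <;> exact le_of_prime h1 (by norm_num) (by norm_num)
  have hbig : n ≤ 19 ∨ n = 79 ∨ n = 157 := by
    have key : ∀ d, IsDeg n d → d = 78 ∨ d = 156 → n ≤ 19 ∨ n = 79 ∨ n = 157 := by
      intro d hd hd'
      rcases low_degree (by omega) hd with h | h | h
      · omega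
      · omega
      · left
        by_contra hcon
        have h3 : 20 * (20 - 3) ≤ n * (n - 3) := Nat.mul_le_mul (by omega) (by omega)
        omega
    rcases h1 with h1 | h1
    · exact key _ h1 (Or.inl rfl)
    · exact key _ h1 (Or.inr rfl)
  rcases hbig with h | h | h
  · by_cases hn : n = 14
    · subst hn
      rcases h2 with h2 | h2
      · exact not_of_full (L := [650, 1300]) (by decide +kernel) h2 (by decide)
      · exact not_of_full (L := [650, 1300]) (by decide +kernel) h2 (by decide)
    · have hm : ∃ d ∈ [78, 156], IsDeg n d := by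
        rcases h1 with h1 | h1
        · exact ⟨_, by decide, h1⟩
        · exact ⟨_, by decide, h1⟩
      obtain ⟨d, hdL, hd⟩ := hm
      have hn' : n = 13 ∨ n = 15 ∨ n = 16 ∨ n = 17 ∨ n = 18 ∨ n = 19 := by omega
      rcases hn' with rfl | rfl | rfl | rfl | rfl | rfl
      all_goals exact not_of_full (L := [78, 156]) (by decide +kernel) hd hdL
  · subst h
    rcases h2 with h2 | h2 <;> rcases low_degree (by norm_num) h2 with h | h | h <;> omega
  · subst h
    rcases h2 with h2 | h2 <;> rcases low_degree (by norm_num) h2 with h | h | h <;> omega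

end Cfsg.Agent.H64.DS
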